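/-
helper24: piece REL (`g2c_relindex`) of CALL S4279 (helper18).
-/
import Mathlib

set_option autoImplicit false

namespace Cfsg.Agent.Helper24.G2C

open Subgroup

/-- PIECE REL: two elementwise commuting subgroups of order `m` meeting in a subgroup of order `2`,
inside a subgroup of order `m * m`, generate a subgroup of index `2` in it. -/
theorem g2c_relindex {G : Type*} [Group G] [Finite G] (A B C : Subgroup G) (m : ℕ)
    (hcomm : ∀ x ∈ A, ∀ y ∈ B, x * y = y * x) (hA : Nat.card A = m) (hB : Nat.card B = m)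
    (hAB : Nat.card (A ⊓ B : Subgroup G) = 2) (hle : A ⊔ B ≤ C) (hC : Nat.card C = m * m) :
    (A ⊔ B).relIndex C = 2 := by
  have h : A ≤ normalizer (B : Set G) := by
    intro a ha
    apply centralizer_le_normalizer
    rw [mem_centralizer_iff]
    intro b hb
    exact (hcomm a ha b hb).symm
  have key : Nat.card ↥(A ⊔ B) * Nat.card ↥(A ⊓ B) = Nat.card ↥A * Nat.card ↥B := by
    have h1 : B.relIndex (A ⊔ B) = B.relIndex A := by
      have := Subgroup.normal_subgroupOf_of_le_normalizer h
      have := Subgroup.normal_subgroupOf_sup_of_le_normalizer h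
      exact Nat.card_congr (QuotientGroup.quotientInfEquivProdNormalizerQuotient A B h).toEquiv.symm
    have h2 : (A ⊓ B).relIndex A = B.relIndex A := inf_relIndex_left A B
    have h3 : (⊥ : Subgroup G).relIndex B * B.relIndex (A ⊔ B) =
        (⊥ : Subgroup G).relIndex (A ⊔ B) := relIndex_mul_relIndex _ _ _ bot_le le_sup_right
    have h4 : (⊥ : Subgroup G).relIndex (A ⊓ B) * (A ⊓ B).relIndex A =
        (⊥ : Subgroup G).relIndex A := relIndex_mul_relIndex _ _ _ bot_le inf_le_left
    rw [relIndex_bot_left, relIndex_bot_left] at h3 h4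
    rw [← h3, ← h4, h1, h2]
    ring
  rw [hA, hB, hAB] at key
  have h5 : (⊥ : Subgroup G).relIndex (A ⊔ B) * (A ⊔ B).relIndex C =
      (⊥ : Subgroup G).relIndex C := relIndex_mul_relIndex _ _ _ bot_le hle
  rw [relIndex_bot_left, relIndex_bot_left, hC, ← key] at h5
  have hpos : 0 < Nat.card ↥(A ⊔ B) := Nat.card_pos
  exact Nat.eq_of_mul_eq_mul_left hpos h5

end Cfsg.Agent.Helper24.G2C
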