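/-
helper24 library: the Gaschütz–Yen theorem.

`omegaZ p Q`: the subgroup `Ω₁(Z(Q))` of the ambient group.
`exists_compl_in`: a normal `p`-subgroup `T ≤ N` with `|N : T|` prime to `p` has a complement
in `N` (Schur–Zassenhaus inside `N`).
`exists_pow_eq_one_not_mem`: if moreover `N` is normal, `p ∣ |G : N|`, and every complement of
`T` in `N` acts fixed-point-freely on `T`, then some `x ∉ N` has `x ^ p = 1`.
`gy_core`: `G` finite `p`-solvable, `p` odd, `O_{p'}(G) = 1`, the automorphism group transitive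
on the subgroups of order `p`; then `|G : O_p(G)|` is prime to `p`.
`gy_main`: the same without `O_{p'}(G) = 1`, concluding `p`-length at most one.
-/
import Mathlib
import Cfsg.Prelude.Def_Local
import Cfsg.Agent.Helper24.PLen
import Cfsg.Agent.Helper24.Coprime
import Cfsg.Agent.Helper35.SZ
import Cfsg.Agent.Helper32.PSolvable
import Cfsg.Agent.Helper32.HallHigman
import Cfsg.Agent.Helper63.PLength
import Cfsg.Agent.Helper63.HHPSol
import Cfsg.Agent.Helper76.PSolvable

set_option autoImplicit false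
open Cfsg

namespace Cfsg.Agent.Helper24

open Subgroup
open scoped Pointwise

variable {G : Type*} [Group G]

/-- `Ω₁(Z(Q))` as a subgroup of the ambient group: the elements of `Q` commuting with all of `Q`
whose `p`-th power is one. -/
def omegaZ (p : ℕ) (Q : Subgroup G) : Subgroup G where
  carrier := {z | z ∈ Q ∧ (∀ q ∈ Q, q * z = z * q) ∧ z ^ p = 1}
  one_mem' := ⟨Q.one_mem, fun q _ => by simp, one_pow p⟩
  mul_mem' := by
    rintro a b ⟨ha, hac, hap⟩ ⟨hb, hbc, hbp⟩
    refine ⟨Q.mul_mem ha hb, fun q hq => ?_, ?_⟩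
    · rw [← mul_assoc, hac q hq, mul_assoc, hbc q hq, mul_assoc]
    · have hab : Commute a b := hbc a ha
      rw [hab.mul_pow, hap, hbp, one_mul]
  inv_mem' := by
    rintro a ⟨ha, hac, hap⟩
    refine ⟨Q.inv_mem ha, fun q hq => ?_, by rw [inv_pow, hap, inv_one]⟩
    have h := hac q hq
    calc q * a⁻¹ = a⁻¹ * (a * q) * a⁻¹ := by group
      _ = a⁻¹ * (q * a) * a⁻¹ := by rw [h]
      _ = a⁻¹ * q := by group

theorem mem_omegaZ {p : ℕ} {Q : Subgroup G} {z : G} :
    z ∈ omegaZ p Q ↔ z ∈ Q ∧ (∀ q ∈ Q, q * z = z * q) ∧ z ^ p = 1 := Iff.rfl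

/-- A nontrivial element of a `p`-group has a power of order `p`. -/
theorem exists_mem_zpowers_orderOf_eq [Finite G] {p : ℕ} [Fact p.Prime] {H : Subgroup G}
    (hH : IsPGroup p H) {t : G} (ht : t ∈ H) (ht1 : t ≠ 1) :
    ∃ z ∈ zpowers t, orderOf z = p := by
  have hp : p.Prime := Fact.out
  obtain ⟨k, hk⟩ := hH ⟨t, ht⟩
  have hk' : t ^ p ^ k = 1 := congrArg Subtype.val hk
  obtain ⟨j, -, hj⟩ := (Nat.dvd_prime_pow hp).mp (orderOf_dvd_of_pow_eq_one hk')
  have hj0 : j ≠ 0 := by
    rintro rfl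
    rw [pow_zero, orderOf_eq_one_iff] at hj
    exact ht1 hj
  have hdvd : p ∣ Nat.card (zpowers t) := by
    rw [Nat.card_zpowers, hj]; exact dvd_pow_self p hj0
  obtain ⟨z, hz⟩ := exists_prime_orderOf_dvd_card' p hdvd
  exact ⟨(z : G), z.2, by rw [← hz, Subgroup.orderOf_coe]⟩

/-- Schur–Zassenhaus inside a subgroup `N`: a normal `p`-subgroup `T ≤ N` of index prime to `p`
in `N` has a complement in `N`. -/
theorem exists_compl_in [Finite G] {p : ℕ} [Fact p.Prime] (T N : Subgroup G) [hTn : T.Normal]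
    (hTN : T ≤ N) (hT : IsPGroup p T) (hcop : (T.relIndex N).Coprime p) :
    ∃ Y : Subgroup G, Y ≤ N ∧ T ⊓ Y = ⊥ ∧ (∀ n ∈ N, ∃ t ∈ T, ∃ y ∈ Y, n = t * y) ∧
      Nat.card Y = T.relIndex N := by
  have : (T.subgroupOf N).Normal := hTn.subgroupOf N
  have hcard : Nat.card (T.subgroupOf N) = Nat.card T := Helper35.card_subgroupOf_of_le hTN
  obtain ⟨k, hk⟩ := IsPGroup.iff_card.mp hT
  have hc : (Nat.card (T.subgroupOf N)).Coprime (T.subgroupOf N).index := by
    rw [hcard, hk]
    exact Nat.Coprime.pow_left k hcop.symm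
  obtain ⟨Y₀, hY₀⟩ := Subgroup.exists_right_complement'_of_coprime hc
  refine ⟨Y₀.map N.subtype, ?_, ?_, ?_, ?_⟩
  · rintro _ ⟨y, _, rfl⟩; exact y.2
  · rw [eq_bot_iff]
    rintro x ⟨hxT, y, hy, rfl⟩
    have h1 : y ∈ T.subgroupOf N ⊓ Y₀ := ⟨hxT, hy⟩
    rw [Helper35.inf_eq_bot_of_isComplement' hY₀, Subgroup.mem_bot] at h1
    rw [Subgroup.mem_bot, h1]; rfl
  · intro n hn
    obtain ⟨t, ht, y, hy, h⟩ := Helper35.exists_mul_of_isComplement' hY₀ ⟨n, hn⟩
    exact ⟨t, ht, y, ⟨y, hy, rfl⟩, congrArg Subtype.val h⟩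
  · rw [Subgroup.card_map_of_injective N.subtype_injective]
    exact (Helper35.index_eq_card_of_isComplement' hY₀).symm

/-- Let `T ≤ N` be normal subgroups of `G`, `T` a `p`-group and `|N : T|` prime to `p`, such that
every complement of `T` in `N` acts fixed-point-freely on `T`. If `p` divides `|G : N|` then some
element outside `N` has `p`-th power one. -/
theorem exists_pow_eq_one_not_mem [Finite G] {p : ℕ} [Fact p.Prime] (T N : Subgroup G)
    [hTn : T.Normal] [hNn : N.Normal] (hTN : T ≤ N) (hT : IsPGroup p T)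
    (hcop : (T.relIndex N).Coprime p)
    (hfix : ∀ Y : Subgroup G, Y ≤ N → T ⊓ Y = ⊥ → (∀ n ∈ N, ∃ t ∈ T, ∃ y ∈ Y, n = t * y) →
      ∀ t ∈ T, (∀ y ∈ Y, y * t = t * y) → t = 1)
    (hdvd : p ∣ N.index) : ∃ x : G, x ∉ N ∧ x ^ p = 1 := by
  have hp : p.Prime := Fact.out
  obtain ⟨Y, hYN, hTY, hNTY, hYcard⟩ := exists_compl_in T N hTN hT hcop
  -- Frattini argument
  have hfrat : ∀ g : G, ∃ t ∈ T, t⁻¹ * g ∈ normalizer (Y : Set G) := by
    intro g
    have hY'N : MulAut.conj g • Y ≤ N := by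
      have h := Helper35.conj_smul_le_conj_smul (g := g) hYN
      rwa [Helper35.conj_smul_normal g N] at h
    have hTN' : N ≤ normalizer (T : Set G) := by
      rw [normalizer_eq_top_iff.mpr hTn]; exact le_top
    have hc1 : (T.subgroupOf N).IsComplement' (Y.subgroupOf N) :=
      Helper35.isComplement'_subgroupOf hTN hTN' hYN hTY hNTY
    have hc2 : (T.subgroupOf N).IsComplement' ((MulAut.conj g • Y).subgroupOf N) := by
      refine Helper35.isComplement'_subgroupOf hTN hTN' hY'N ?_ ?_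
      · rw [eq_bot_iff]
        rintro x ⟨hxT, hxY⟩
        have hxY' : g⁻¹ * x * g ∈ Y := Helper35.mem_conj_smul.mp hxY
        have h1 : g⁻¹ * x * g ∈ T := by
          have h := hTn.conj_mem x hxT g⁻¹
          simpa using h
        have h2 : g⁻¹ * x * g ∈ T ⊓ Y := ⟨h1, hxY'⟩
        rw [hTY, Subgroup.mem_bot] at h2
        rw [Subgroup.mem_bot]
        calc x = g * (g⁻¹ * x * g) * g⁻¹ := by group
          _ = 1 := by rw [h2]; group
      · intro l hl
        have hl' : g⁻¹ * l * g ∈ N := by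
          have h := hNn.conj_mem l hl g⁻¹
          simpa using h
        obtain ⟨t, ht, y, hy, h⟩ := hNTY _ hl'
        refine ⟨g * t * g⁻¹, hTn.conj_mem t ht g, g * y * g⁻¹,
          Helper35.conj_mem_conj_smul hy, ?_⟩
        calc l = g * (g⁻¹ * l * g) * g⁻¹ := by group
          _ = g * (t * y) * g⁻¹ := by rw [h]
          _ = g * t * g⁻¹ * (g * y * g⁻¹) := by group
    have : (T.subgroupOf N).Normal := hTn.subgroupOf N
    have hcard : Nat.card (T.subgroupOf N) = Nat.card T := Helper35.card_subgroupOf_of_le hTN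
    obtain ⟨k, hk⟩ := IsPGroup.iff_card.mp hT
    have hc : (Nat.card (T.subgroupOf N)).Coprime (T.subgroupOf N).index := by
      rw [hcard, hk]; exact Nat.Coprime.pow_left k hcop.symm
    have hTp' : IsPGroup p (T.subgroupOf N) := hT.comap_subtype
    have : Group.IsNilpotent (T.subgroupOf N) := hTp'.isNilpotent
    have hsolv : Group.IsSolvable (T.subgroupOf N) := inferInstance
    obtain ⟨n, hn, hconj⟩ := Helper35.sz_conj (T.subgroupOf N) hc (Or.inl hsolv) _ _ hc1 hc2
    have h3 : MulAut.conj (n : G) • Y = MulAut.conj g • Y :=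
      Helper35.conj_smul_eq_of_subgroupOf hYN hY'N n hconj
    refine ⟨(n : G), hn, ?_⟩
    rw [Helper35.mem_normalizer_iff_conj_smul_eq, ← Helper35.conj_smul_conj_smul, ← h3,
      Helper35.conj_smul_conj_smul]
    simp
  -- an element of order `p` of `G ⧸ N`, lifted into the normalizer of `Y`
  have hdvd' : p ∣ Nat.card (G ⧸ N) := hdvd
  obtain ⟨gbar, hgbar⟩ := exists_prime_orderOf_dvd_card' p hdvd'
  obtain ⟨g₀, rfl⟩ := QuotientGroup.mk_surjective gbar
  obtain ⟨t, ht, hg⟩ := hfrat g₀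
  obtain ⟨g, hgdef⟩ : ∃ g, g = t⁻¹ * g₀ := ⟨_, rfl⟩
  rw [← hgdef] at hg
  have hmk : (QuotientGroup.mk g : G ⧸ N) = QuotientGroup.mk g₀ := by
    rw [hgdef, QuotientGroup.mk_mul]
    have h1 : (QuotientGroup.mk t⁻¹ : G ⧸ N) = 1 :=
      (QuotientGroup.eq_one_iff _).mpr (N.inv_mem (hTN ht))
    rw [h1, one_mul]
  have hord : orderOf (QuotientGroup.mk g : G ⧸ N) = p := by rw [hmk]; exact hgbar
  have hgpN : g ^ p ∈ N := by
    rw [← QuotientGroup.eq_one_iff, QuotientGroup.mk_pow, ← hord]; exact pow_orderOf_eq_one _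
  have hgpY : g ^ p ∈ Y := by
    obtain ⟨t', ht', y, hy, h⟩ := hNTY _ hgpN
    have ht'n : t' ∈ normalizer (Y : Set G) := by
      have h1 : t' = g ^ p * y⁻¹ := by rw [h]; group
      rw [h1]
      exact mul_mem (pow_mem hg p) (inv_mem (le_normalizer hy))
    have ht'1 : t' = 1 := by
      refine hfix Y hYN hTY hNTY t' ht' (fun y' hy' => ?_)
      have h1 : t' * y' * t'⁻¹ ∈ Y := (mem_normalizer_iff.mp ht'n y').mp hy'
      have h2 : t' * y' * t'⁻¹ * y'⁻¹ ∈ T := by
        have h4 : y' * t'⁻¹ * y'⁻¹ ∈ T := hTn.conj_mem _ (T.inv_mem ht') y'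
        have h5 := T.mul_mem ht' h4
        simpa [mul_assoc] using h5
      have h3 : t' * y' * t'⁻¹ * y'⁻¹ ∈ T ⊓ Y := ⟨h2, Y.mul_mem h1 (Y.inv_mem hy')⟩
      rw [hTY, Subgroup.mem_bot] at h3
      calc y' * t' = (t' * y' * t'⁻¹ * y'⁻¹)⁻¹ * (t' * y') := by group
        _ = t' * y' := by rw [h3]; group
    rw [h, ht'1, one_mul]; exact hy
  refine ⟨g ^ Nat.card Y, ?_, ?_⟩
  · intro hmem
    have h1 : (QuotientGroup.mk g : G ⧸ N) ^ Nat.card Y = 1 := by
      rw [← QuotientGroup.mk_pow]; exact (QuotientGroup.eq_one_iff _).mpr hmem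
    have h2 : p ∣ Nat.card Y := by rw [← hord]; exact orderOf_dvd_of_pow_eq_one h1
    rw [hYcard] at h2
    exact hp.one_lt.ne' (Nat.Coprime.eq_one_of_dvd hcop.symm h2)
  · rw [← pow_mul, mul_comm, pow_mul]
    exact pow_card_eq_one_of_mem hgpY

/-- **Gaschütz–Yen**, reduced case: `G` finite `p`-solvable with `O_{p'}(G) = 1`, `p` odd, and the
automorphism group transitive on the subgroups of order `p`. Then `O_p(G)` is a Sylow
`p`-subgroup. -/
theorem gy_core [Finite G] {p : ℕ} [Fact p.Prime] (hp2 : p ≠ 2) (hG : IsPSolvable p G)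
    (hred : pPrimeCore p G = ⊥)
    (htr : ∀ U V : Subgroup G, Nat.card U = p → Nat.card V = p →
      ∃ a : MulAut G, U.map a.toMonoidHom = V) :
    ((pCore p G).index).Coprime p := by
  have hp : p.Prime := Fact.out
  obtain ⟨Q, hQdef⟩ : ∃ Q : Subgroup G, Q = pCore p G := ⟨_, rfl⟩
  have hQn : Q.Normal := by rw [hQdef]; exact pCore_normal p G
  have hQp : IsPGroup p Q := by rw [hQdef]; exact isPGroup_pCore p G
  have hCQ : centralizer (Q : Set G) ≤ Q := by
    rw [hQdef]; exact Helper32.centralizer_pCore_le_of_isPSolvable hG hred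
  rw [← hQdef]
  by_cases hQ1 : Q = ⊥
  · have htop : Q = ⊤ := by
      rw [eq_top_iff]; intro g _; apply hCQ; rw [hQ1, mem_centralizer_iff]
      intro h hh
      rw [Subgroup.coe_bot, Set.mem_singleton_iff] at hh
      rw [hh, one_mul, mul_one]
    rw [htop, Subgroup.index_top]; exact Nat.coprime_one_left p
  have hQchar : ∀ a : MulAut G, ∀ q ∈ Q, a q ∈ Q := by
    intro a q hq
    have hn : (Q.map a.toMonoidHom).Normal := hQn.map _ a.surjective
    have hpg : IsPGroup p (Q.map a.toMonoidHom) := hQp.map _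
    have h1 : Q.map a.toMonoidHom ≤ pCore p G := le_pCore hn hpg
    rw [hQdef]
    exact h1 (Subgroup.mem_map_of_mem _ (hQdef ▸ hq))
  obtain ⟨V, hVdef⟩ : ∃ V : Subgroup G, V = omegaZ p Q := ⟨_, rfl⟩
  have hVmem : ∀ {z : G}, z ∈ V ↔ z ∈ Q ∧ (∀ q ∈ Q, q * z = z * q) ∧ z ^ p = 1 := by
    intro z; rw [hVdef]; exact mem_omegaZ
  have hVQ : V ≤ Q := fun v hv => (hVmem.mp hv).1
  have hVchar : ∀ a : MulAut G, ∀ v ∈ V, a v ∈ V := by
    intro a v hv
    obtain ⟨hv1, hv2, hv3⟩ := hVmem.mp hv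
    refine hVmem.mpr ⟨hQchar a v hv1, fun q hq => ?_, by rw [← map_pow, hv3, map_one]⟩
    have h1 : a⁻¹ q ∈ Q := hQchar a⁻¹ q hq
    have h2 := hv2 _ h1
    have h3 := congrArg a h2
    rw [map_mul, map_mul] at h3
    simpa using h3
  -- an element of order `p` in `V`
  obtain ⟨z₀, hz₀V, hz₀⟩ : ∃ z₀ ∈ V, orderOf z₀ = p := by
    have : Nontrivial Q := (Subgroup.nontrivial_iff_ne_bot Q).mpr hQ1
    have : Nontrivial (Subgroup.center Q) := hQp.center_nontrivial
    have hcp : IsPGroup p (Subgroup.center Q) := hQp.to_subgroup _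
    obtain ⟨k, hk⟩ := IsPGroup.iff_card.mp hcp
    have hk0 : k ≠ 0 := by
      rintro rfl
      rw [pow_zero] at hk
      have := Finite.one_lt_card (α := Subgroup.center Q)
      omega
    have hdvd : p ∣ Nat.card (Subgroup.center Q) := by rw [hk]; exact dvd_pow_self p hk0
    obtain ⟨z, hz⟩ := exists_prime_orderOf_dvd_card' p hdvd
    refine ⟨((z : Q) : G), hVmem.mpr ⟨(z : Q).2, fun q hq => ?_, ?_⟩, ?_⟩
    · have h1 := Subgroup.mem_center_iff.mp z.2 ⟨q, hq⟩
      exact congrArg Subtype.val h1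
    · have h1 : z ^ p = 1 := by rw [← hz]; exact pow_orderOf_eq_one z
      have h2 := congrArg (fun w : Subgroup.center Q => ((w : Q) : G)) h1
      simpa using h2
    · rw [← hz, Subgroup.orderOf_coe, Subgroup.orderOf_coe]
  have hall : ∀ x : G, x ^ p = 1 → x ∈ V := by
    intro x hx
    by_cases hx1 : x = 1
    · rw [hx1]; exact V.one_mem
    have hox : orderOf x = p := orderOf_eq_prime hx hx1
    obtain ⟨a, ha⟩ := htr (zpowers z₀) (zpowers x) (by rw [Nat.card_zpowers, hz₀])
      (by rw [Nat.card_zpowers, hox])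
    have hxm : x ∈ (zpowers z₀).map a.toMonoidHom := by rw [ha]; exact mem_zpowers x
    obtain ⟨w, hw, rfl⟩ := hxm
    exact hVchar a w ((zpowers_le.mpr hz₀V) hw)
  -- the subgroup `K = O_{p,p'}(G)`
  obtain ⟨K, hKdef⟩ : ∃ K : Subgroup G,
      K = (pPrimeCore p (G ⧸ Q)).comap (QuotientGroup.mk' Q) := ⟨_, rfl⟩
  have hKn : K.Normal := by rw [hKdef]; infer_instance
  have hQK : Q ≤ K := by
    intro q hq
    rw [hKdef, Subgroup.mem_comap]
    have h1 : QuotientGroup.mk' Q q = 1 := (QuotientGroup.eq_one_iff q).mpr hq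
    rw [h1]; exact Subgroup.one_mem _
  have hKcop : (Q.relIndex K).Coprime p := by
    rw [hKdef, Helper63.PLen.relIndex_comap_mk]; exact coprime_card_pPrimeCore p
  have hKchar : ∀ a : MulAut G, ∀ k ∈ K, a k ∈ K := by
    intro a k hk
    have hQa : Q.map (a : G →* G) = Q := by
      apply le_antisymm
      · rintro _ ⟨q, hq, rfl⟩; exact hQchar a q hq
      · intro q hq
        exact ⟨a⁻¹ q, hQchar a⁻¹ q hq, by simp⟩
    have hchar : (pPrimeCore p (G ⧸ Q)).Characteristic := by
      have h1 := Helper63.PLen.upper_characteristic (G := G ⧸ Q) p 1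
      rwa [Helper63.PLen.upper_one_eq] at h1
    have h1 : (QuotientGroup.congr Q Q a hQa) (QuotientGroup.mk' Q k) ∈ pPrimeCore p (G ⧸ Q) :=
      (Subgroup.characteristic_iff_map_le.mp hchar (QuotientGroup.congr Q Q a hQa))
        (Subgroup.mem_map_of_mem _ (by rw [hKdef] at hk; exact hk))
    rw [hKdef, Subgroup.mem_comap]
    exact h1
  obtain ⟨W, hWdef⟩ : ∃ W : Subgroup G, W = V ⊓ centralizer (K : Set G) := ⟨_, rfl⟩
  have hWmem : ∀ {w : G}, w ∈ W ↔ w ∈ V ∧ ∀ k ∈ K, k * w = w * k := by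
    intro w; rw [hWdef, Subgroup.mem_inf, mem_centralizer_iff]; rfl
  have hWchar : ∀ a : MulAut G, ∀ w ∈ W, a w ∈ W := by
    intro a w hw
    obtain ⟨hw1, hw2⟩ := hWmem.mp hw
    refine hWmem.mpr ⟨hVchar a w hw1, fun k hk => ?_⟩
    have h1 : a⁻¹ k ∈ K := hKchar a⁻¹ k hk
    have h2 := hw2 _ h1
    have h3 := congrArg a h2
    rw [map_mul, map_mul] at h3
    simpa using h3
  have hdich : W = ⊥ ∨ V ≤ W := by
    by_cases hW : W = ⊥
    · exact Or.inl hW
    right
    obtain ⟨w, hw, hw1⟩ : ∃ w ∈ W, w ≠ 1 := by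
      by_contra hcon
      push Not at hcon
      exact hW ((Subgroup.eq_bot_iff_forall W).mpr hcon)
    have how : orderOf w = p := orderOf_eq_prime (hVmem.mp (hWmem.mp hw).1).2.2 hw1
    intro v hv
    by_cases hv1 : v = 1
    · rw [hv1]; exact W.one_mem
    have hov : orderOf v = p := orderOf_eq_prime (hVmem.mp hv).2.2 hv1
    obtain ⟨a, ha⟩ := htr (zpowers w) (zpowers v) (by rw [Nat.card_zpowers, how])
      (by rw [Nat.card_zpowers, hov])
    have hvm : v ∈ (zpowers w).map a.toMonoidHom := by rw [ha]; exact mem_zpowers v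
    obtain ⟨u, hu, rfl⟩ := hvm
    exact hWchar a u ((zpowers_le.mpr hw) hu)
  rcases hdich with hW | hW
  · -- `K` has no fixed points on `V`
    have hnd : ¬ p ∣ K.index := by
      intro hdvd
      have hfix : ∀ Y : Subgroup G, Y ≤ K → Q ⊓ Y = ⊥ →
          (∀ n ∈ K, ∃ t ∈ Q, ∃ y ∈ Y, n = t * y) →
          ∀ t ∈ Q, (∀ y ∈ Y, y * t = t * y) → t = 1 := by
        intro Y hYK hQY hKQY t ht hcomm
        by_contra ht1
        obtain ⟨z, hzpow, hz⟩ := exists_mem_zpowers_orderOf_eq hQp ht ht1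
        have hzV : z ∈ V := hall z (by rw [← hz]; exact pow_orderOf_eq_one z)
        have hzW : z ∈ W := by
          refine hWmem.mpr ⟨hzV, fun k hk => ?_⟩
          obtain ⟨q, hq, y, hy, rfl⟩ := hKQY k hk
          have h1 : q * z = z * q := (hVmem.mp hzV).2.1 q hq
          have h2 : y * z = z * y := by
            obtain ⟨i, rfl⟩ := mem_zpowers_iff.mp hzpow
            exact (show Commute y t from hcomm y hy).zpow_right i
          rw [mul_assoc, h2, ← mul_assoc, h1, mul_assoc]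
        rw [hW, Subgroup.mem_bot] at hzW
        rw [hzW, orderOf_one] at hz
        exact hp.one_lt.ne hz
      obtain ⟨x, hxK, hxp⟩ := exists_pow_eq_one_not_mem Q K hQK hQp hKcop hfix hdvd
      exact hxK (hQK (hVQ (hall x hxp)))
    have hKi : (K.index).Coprime p := ((Nat.Prime.coprime_iff_not_dvd hp).mpr hnd).symm
    rw [← Subgroup.relIndex_mul_index hQK]
    exact Nat.Coprime.mul_left hKcop hKi
  · -- `K` centralizes `V`
    obtain ⟨Y, hYK, hQY, hKQY, hYcard⟩ := exists_compl_in Q K hQK hQp hKcop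
    have hYcop : (Nat.card Y).Coprime p := by rw [hYcard]; exact hKcop
    have hQcY : Q ≤ centralizer (Y : Set G) := by
      refine le_centralizer_of_odd_of_centralizes_omega hp2 Y hYcop (Nat.card Q) Q le_rfl hQp ?_ ?_
      · rw [normalizer_eq_top_iff.mpr hQn]; exact le_top
      · intro x hx hxp a ha
        exact (hWmem.mp (hW (hall x hxp))).2 a (hYK ha)
    have hY1 : ∀ y ∈ Y, y = 1 := by
      intro y hy
      have hyQ : y ∈ Q := by
        apply hCQ
        rw [mem_centralizer_iff]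
        intro q hq
        exact ((mem_centralizer_iff.mp (hQcY hq)) y hy).symm
      have h1 : y ∈ Q ⊓ Y := ⟨hyQ, hy⟩
      rwa [hQY, Subgroup.mem_bot] at h1
    have hKQ : K ≤ Q := by
      intro k hk
      obtain ⟨q, hq, y, hy, rfl⟩ := hKQY k hk
      rw [hY1 y hy, mul_one]; exact hq
    have hpp : pPrimeCore p (G ⧸ Q) = ⊥ := by
      rw [eq_bot_iff]
      intro s hs
      obtain ⟨g, rfl⟩ := QuotientGroup.mk_surjective s
      have h1 : g ∈ K := by rw [hKdef]; exact hs
      exact Subgroup.mem_bot.mpr ((QuotientGroup.eq_one_iff g).mpr (hKQ h1))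
    have hpc : pCore p (G ⧸ Q) = ⊥ := by
      subst hQdef
      exact Helper63.HHP.pCore_quotient_pCore_eq_bot p
    have htop : Q = ⊤ := by
      by_contra hne
      have hGQ : IsPSolvable p (G ⧸ Q) := Helper32.isPSolvable_quotient hp hG Q
      have hnt : (⊤ : Subgroup (G ⧸ Q)) ≠ ⊥ := by
        intro h
        apply hne
        rw [eq_top_iff]; intro g _
        have h1 : (QuotientGroup.mk g : G ⧸ Q) ∈ (⊤ : Subgroup (G ⧸ Q)) := Subgroup.mem_top _
        rw [h, Subgroup.mem_bot] at h1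
        exact (QuotientGroup.eq_one_iff g).mp h1
      obtain ⟨D, hDn, -, hD1, hD⟩ := Helper32.exists_normal_le_of_isPSolvable hp hGQ ⊤ hnt
      rcases hD with hD | hD
      · have h1 : D ≤ pCore p (G ⧸ Q) := le_pCore hDn hD
        rw [hpc] at h1
        exact hD1 (le_bot_iff.mp h1)
      · have h1 : D ≤ pPrimeCore p (G ⧸ Q) := le_pPrimeCore hDn hD
        rw [hpp] at h1
        exact hD1 (le_bot_iff.mp h1)
    rw [htop, Subgroup.index_top]; exact Nat.coprime_one_left p

/-- **Gaschütz–Yen**: a finite `p`-solvable group, `p` odd, whose automorphism group is transitive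
on the subgroups of order `p`, has `p`-length at most one. -/
theorem gy_main [Finite G] {p : ℕ} [Fact p.Prime] (hp2 : p ≠ 2) (hG : IsPSolvable p G)
    (htr : ∀ U V : Subgroup G, Nat.card U = p → Nat.card V = p →
      ∃ a : MulAut G, U.map a.toMonoidHom = V) :
    PLengthLE p 1 G := by
  have hp : p.Prime := Fact.out
  obtain ⟨N, hNdef⟩ : ∃ N : Subgroup G, N = pPrimeCore p G := ⟨_, rfl⟩
  have hNn : N.Normal := by rw [hNdef]; exact pPrimeCore_normal p G
  have hNcop : (Nat.card N).Coprime p := by rw [hNdef]; exact coprime_card_pPrimeCore p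
  have hNchar : ∀ a : MulAut G, N.map a.toMonoidHom = N := by
    have hchar : N.Characteristic := by
      have h1 := Helper63.PLen.upper_characteristic (G := G) p 1
      rwa [Helper63.PLen.upper_one_eq, ← hNdef] at h1
    exact Subgroup.characteristic_iff_map_eq.mp hchar
  have hGq : IsPSolvable p (G ⧸ N) := Helper32.isPSolvable_quotient hp hG N
  have hredq : pPrimeCore p (G ⧸ N) = ⊥ := by
    subst hNdef
    exact Helper76.pPrimeCore_quotient_eq_bot
  -- lifting subgroups of order `p`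
  have lift : ∀ U : Subgroup (G ⧸ N), Nat.card U = p →
      ∃ u : G, orderOf u = p ∧ U = (zpowers u).map (QuotientGroup.mk' N) := by
    intro U hU
    obtain ⟨ubar, hubarU, hubar1⟩ : ∃ ubar ∈ U, ubar ≠ 1 := by
      by_contra hcon
      push Not at hcon
      have h1 : U = ⊥ := (Subgroup.eq_bot_iff_forall U).mpr hcon
      rw [h1, Subgroup.card_bot] at hU
      exact hp.one_lt.ne hU
    have hubarp : ubar ^ p = 1 := by
      have h1 := pow_card_eq_one_of_mem hubarU
      rwa [hU] at h1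
    have hordbar : orderOf ubar = p := orderOf_eq_prime hubarp hubar1
    obtain ⟨g, rfl⟩ := QuotientGroup.mk_surjective ubar
    have hgp : g ^ p ∈ N := by
      rw [← QuotientGroup.eq_one_iff, QuotientGroup.mk_pow]; exact hubarp
    obtain ⟨u, hudef⟩ : ∃ u, u = g ^ Nat.card N := ⟨_, rfl⟩
    have hup : u ^ p = 1 := by
      rw [hudef, ← pow_mul, mul_comm, pow_mul]; exact pow_card_eq_one_of_mem hgp
    have hmku : (QuotientGroup.mk u : G ⧸ N) = (QuotientGroup.mk g : G ⧸ N) ^ Nat.card N := by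
      rw [hudef, QuotientGroup.mk_pow]
    have hordu : orderOf (QuotientGroup.mk u : G ⧸ N) = p := by
      rw [hmku, Nat.Coprime.orderOf_pow (by rw [hordbar]; exact hNcop.symm), hordbar]
    have hu1 : u ≠ 1 := by
      rintro rfl
      rw [QuotientGroup.mk_one, orderOf_one] at hordu
      exact hp.one_lt.ne hordu
    refine ⟨u, orderOf_eq_prime hup hu1, ?_⟩
    rw [MonoidHom.map_zpowers]
    symm
    apply Subgroup.eq_of_le_of_card_ge
    · rw [zpowers_le]
      show (QuotientGroup.mk u : G ⧸ N) ∈ U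
      rw [hmku]; exact U.pow_mem hubarU _
    · rw [hU, Nat.card_zpowers]
      exact hordu.symm.le
  have htrq : ∀ U V : Subgroup (G ⧸ N), Nat.card U = p → Nat.card V = p →
      ∃ a : MulAut (G ⧸ N), U.map a.toMonoidHom = V := by
    intro U V hU hV
    obtain ⟨u, hu, rfl⟩ := lift U hU
    obtain ⟨v, hv, rfl⟩ := lift V hV
    obtain ⟨a, ha⟩ := htr (zpowers u) (zpowers v) (by rw [Nat.card_zpowers, hu])
      (by rw [Nat.card_zpowers, hv])
    refine ⟨QuotientGroup.congr N N a (hNchar a), ?_⟩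
    rw [← ha, Subgroup.map_map, Subgroup.map_map]
    congr 1
  have hcore := gy_core hp2 hGq hredq htrq
  have h1 : PLengthLE p 1 (G ⧸ N) := by
    have hA : PLengthLE p 1 (pCore p (G ⧸ N)) :=
      Helper63.PLen.pLengthLE_one_of_isPGroup p (isPGroup_pCore p _)
    have hB : PLengthLE p 0 ((G ⧸ N) ⧸ pCore p (G ⧸ N)) :=
      Helper63.PLen.pLengthLE_of_coprime p hcore
    exact Helper63.PLen.pLengthLE_extension p (pCore p (G ⧸ N)) hA hB
  have h0 : PLengthLE p 0 N := Helper63.PLen.pLengthLE_of_coprime p hNcop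
  have h2 := Helper63.PLen.pLengthLE_extension p N h0 h1
  simpa using h2

end Cfsg.Agent.Helper24
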