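/-
helper24: piece FV (`pf_exists_fv`) of CALL S2720 (helper43).
-/
import Mathlib
import Cfsg.Agent.Helper45.IDMinus
import Cfsg.Agent.Helper43.OrthSemi
import Cfsg.Agent.Helper43.USimDet
import Cfsg.Agent.Helper43.NormGen

set_option autoImplicit false

namespace Cfsg.Agent.Helper24.PFFV

open Cfsg Matrix Polynomial Cfsg.Agent.Helper45 Cfsg.Agent.Helper45.ID

universe u

variable {ι : Type} [Fintype ι] [DecidableEq ι] {F : Type u} [Field F] [Fintype F]

/-- A polynomial killing a non-zero vector has an irreducible factor killing a non-zero vector. -/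
theorem pf_fv_irred (G : Matrix ι ι F) :
    ∀ (n : ℕ) (q : F[X]), q.natDegree = n → q ≠ 0 → ∀ v : ι → F, v ≠ 0 →
      (aeval G q) *ᵥ v = 0 →
      ∃ (f : F[X]) (v' : ι → F), Irreducible f ∧ f ∣ q ∧ v' ≠ 0 ∧ (aeval G f) *ᵥ v' = 0 := by
  intro n
  induction n using Nat.strong_induction_on with
  | _ n ih =>
    intro q hqn hq0 v hv hqv
    have hnu : ¬ IsUnit q := by
      intro hu
      obtain ⟨c, hc, rfl⟩ := Polynomial.isUnit_iff.mp hu
      apply hv
      rw [aeval_C] at hqv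
      have h1 : (algebraMap F (Matrix ι ι F) c) *ᵥ v = c • v := by
        rw [Matrix.algebraMap_eq_diagonal]
        ext i
        simp [Matrix.mulVec_diagonal]
      rw [h1] at hqv
      exact (smul_eq_zero.mp hqv).resolve_left hc.ne_zero
    by_cases hirr : Irreducible q
    · exact ⟨q, v, hirr, dvd_rfl, hv, hqv⟩
    · rw [irreducible_iff] at hirr
      push Not at hirr
      obtain ⟨a, b, hab, hau, hbu⟩ := hirr hnu
      have ha0 : a ≠ 0 := by
        rintro rfl
        rw [zero_mul] at hab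
        exact hq0 hab
      have hb0 : b ≠ 0 := by
        rintro rfl
        rw [mul_zero] at hab
        exact hq0 hab
      have hdeg : q.natDegree = a.natDegree + b.natDegree := by
        rw [hab]; exact natDegree_mul ha0 hb0
      have hapos : 0 < a.natDegree :=
        natDegree_pos_iff_degree_pos.mpr (degree_pos_of_ne_zero_of_nonunit ha0 hau)
      have hbpos : 0 < b.natDegree :=
        natDegree_pos_iff_degree_pos.mpr (degree_pos_of_ne_zero_of_nonunit hb0 hbu)
      by_cases hbv : (aeval G b) *ᵥ v = 0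
      · obtain ⟨f, v', hf, hfb, hv', hfv'⟩ :=
          ih b.natDegree (by omega) b rfl hb0 v hv hbv
        exact ⟨f, v', hf, hab ▸ Dvd.dvd.mul_left hfb a, hv', hfv'⟩
      · have h2 : (aeval G a) *ᵥ ((aeval G b) *ᵥ v) = 0 := by
          rw [Matrix.mulVec_mulVec, ← map_mul, ← hab]
          exact hqv
        obtain ⟨f, v', hf, hfa, hv', hfv'⟩ :=
          ih a.natDegree (by omega) a rfl ha0 _ hbv h2
        exact ⟨f, v', hf, hab ▸ Dvd.dvd.mul_right hfa b, hv', hfv'⟩

/-- FV: a non-trivial matrix of prime order `r ≠ p` has an eigen-polynomial `f ≠ X - 1` -/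
theorem pf_exists_fv {p : ℕ} [Fact p.Prime] [CharP F p] (G : Matrix ι ι F) {r : ℕ}
    (hr : r.Prime) (hrp : r ≠ p) (hGr : G ^ r = 1) (hG1 : G ≠ 1) :
    ∃ (f : F[X]) (v : ι → F), Irreducible f ∧ f ∣ X ^ r - 1 ∧ f.eval 1 ≠ 0 ∧ v ≠ 0 ∧
      (aeval G f) *ᵥ v = 0 := by
  have hp : p.Prime := Fact.out
  have hrF : (r : F) ≠ 0 := by
    intro h
    rw [CharP.cast_eq_zero_iff F p r] at h
    exact hrp ((Nat.prime_dvd_prime_iff_eq hp hr).mp h).symm
  obtain ⟨Φ, hΦ⟩ : ∃ Φ : F[X], Φ = ∑ i ∈ Finset.range r, X ^ i := ⟨_, rfl⟩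
  have hΦmul : Φ * (X - 1) = X ^ r - 1 := by rw [hΦ]; exact geom_sum_mul X r
  have hΦ1 : Φ.eval 1 = (r : F) := by
    rw [hΦ, eval_finsetSum]
    simp
  have hΦ0 : Φ ≠ 0 := by
    rintro rfl
    rw [eval_zero] at hΦ1
    exact hrF hΦ1.symm
  -- a vector moved by `G`
  obtain ⟨w, hw⟩ : ∃ w : ι → F, (G - 1) *ᵥ w ≠ 0 := by
    by_contra hno
    push Not at hno
    apply hG1
    have h1 : G - 1 = 0 := by
      apply Matrix.ext
      intro i j
      have h2 := congrFun (hno (Pi.single j 1)) i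
      simpa using h2
    exact sub_eq_zero.mp h1
  have hkill : (aeval G Φ) *ᵥ ((G - 1) *ᵥ w) = 0 := by
    have h1 : aeval G Φ * (G - 1) = 0 := by
      have h2 : aeval G (Φ * (X - 1)) = aeval G Φ * (G - 1) := by
        rw [map_mul, map_sub, aeval_X, map_one]
      rw [← h2, hΦmul, map_sub, map_pow, aeval_X, map_one, hGr, sub_self]
    rw [Matrix.mulVec_mulVec, h1, Matrix.zero_mulVec]
  obtain ⟨f, v, hf, hfΦ, hv, hfv⟩ := pf_fv_irred G Φ.natDegree Φ rfl hΦ0 _ hw hkill
  refine ⟨f, v, hf, hΦmul ▸ Dvd.dvd.mul_right hfΦ (X - 1), ?_, hv, hfv⟩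
  intro h0
  obtain ⟨c, hc⟩ := hfΦ
  have h1 : Φ.eval 1 = 0 := by rw [hc, eval_mul, h0, zero_mul]
  rw [hΦ1] at h1
  exact hrF h1

end Cfsg.Agent.Helper24.PFFV
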