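/-
helper24: piece PAIR (`pf_pair`) of CALL S2720 (helper43).
-/
import Mathlib
import Cfsg.Agent.Helper45.IDMinus
import Cfsg.Agent.Helper43.OrthSemi
import Cfsg.Agent.Helper43.USimDet
import Cfsg.Agent.Helper43.NormGen
import Cfsg.Agent.Helper37.PFADJ

set_option autoImplicit false

namespace Cfsg.Agent.Helper24.PFPAIR

open Cfsg Matrix Polynomial Cfsg.Agent.Helper45 Cfsg.Agent.Helper45.ID

universe u

variable {ι : Type} [Fintype ι] [DecidableEq ι] {F : Type u} [Field F] [Fintype F]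

/-- PAIR: a vector of `ker f(G)` is not orthogonal to `ker f(G⁻¹)`.  (`X^r - 1 = f * f₂` with
`f`, `f₂` coprime; `V = ker f(G⁻¹) ⊕ f(G⁻¹) V` and `v ⊥ f(G⁻¹) V` by `pf_adj`.) -/
theorem pf_pair (Q : QuadraticForm F (ι → F)) (hQ : (QuadraticMap.polarBilin Q).Nondegenerate)
    {p : ℕ} [Fact p.Prime] [CharP F p] (G : Matrix ι ι F) (hG : ∀ x, Q (G *ᵥ x) = Q x) {r : ℕ}
    (hr : r.Prime) (hrp : r ≠ p) (hGr : G ^ r = 1) (f : F[X]) (hf : Irreducible f)
    (hfd : f ∣ X ^ r - 1) (v : ι → F) (hv : v ≠ 0) (hfv : (aeval G f) *ᵥ v = 0) :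
    ∃ v' : ι → F, (aeval (G ^ (r - 1)) f) *ᵥ v' = 0 ∧ QuadraticMap.polar ⇑Q v v' ≠ 0 := by
  have hp : p.Prime := Fact.out
  have hr0 : 0 < r := hr.pos
  have hrF : (r : F) ≠ 0 := by
    intro h
    rw [CharP.cast_eq_zero_iff F p r] at h
    exact hrp ((Nat.prime_dvd_prime_iff_eq hp hr).mp h).symm
  obtain ⟨f₂, hf₂⟩ := hfd
  have hsep : (X ^ r - C (1 : F)).Separable := separable_X_pow_sub_C 1 hrF one_ne_zero
  rw [map_one, hf₂] at hsep
  obtain ⟨α, β, hαβ⟩ := hsep.isCoprime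
  obtain ⟨H, hHdef⟩ : ∃ H : Matrix ι ι F, H = G ^ (r - 1) := ⟨_, rfl⟩
  have hHr : H ^ r = 1 := by
    rw [hHdef, ← pow_mul, mul_comm, pow_mul, hGr, one_pow]
  -- a vector not orthogonal to `v`
  obtain ⟨w, hw⟩ : ∃ w : ι → F, QuadraticMap.polar ⇑Q v w ≠ 0 := by
    by_contra hno
    push Not at hno
    apply hv
    apply hQ.1 v
    intro y
    rw [QuadraticMap.polarBilin_apply_apply]
    exact hno y
  refine ⟨(aeval H (β * f₂)) *ᵥ w, ?_, ?_⟩
  · rw [← hHdef, Matrix.mulVec_mulVec, ← map_mul]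
    have h1 : f * (β * f₂) = β * (X ^ r - 1) := by rw [hf₂]; ring
    rw [h1, map_mul, map_sub, map_pow, aeval_X, map_one, hHr, sub_self, mul_zero,
      Matrix.zero_mulVec]
  · have h1 : w = (aeval H (α * f)) *ᵥ w + (aeval H (β * f₂)) *ᵥ w := by
      rw [← Matrix.add_mulVec, ← map_add, hαβ, map_one, Matrix.one_mulVec]
    have h2 : QuadraticMap.polar ⇑Q v ((aeval H (α * f)) *ᵥ w) = 0 := by
      have h3 : (aeval H (α * f)) *ᵥ w = (aeval H f) *ᵥ ((aeval H α) *ᵥ w) := by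
        rw [Matrix.mulVec_mulVec, ← map_mul, mul_comm]
      rw [h3, hHdef, ← Cfsg.Agent.Helper37.PFADJ.pf_adj Q G hG r hr0 hGr f v, hfv]
      simp [QuadraticMap.polar]
    intro h4
    apply hw
    rw [h1, QuadraticMap.polar_add_right, h2, h4, add_zero]

end Cfsg.Agent.Helper24.PFPAIR
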