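import Cfsg.Agent.Helper24.SL2Sec
import Cfsg.Agent.Helper24.Quadratic
import Cfsg.Agent.Helper41.BaerSuzuki
import Cfsg.Agent.Helper33.Sections
import Cfsg.Prelude.Def_Transfer
import Cfsg.Prelude.Def_Solvable

/-!
# Quadratic pairs inside an ambient group

Ambient forms of the `SL(2, p)`-involvement theorem: the acting group and the elementary abelian
`p`-group are subgroups of one finite group `G`.
-/

set_option autoImplicit false

namespace Cfsg.Agent.Helper24

open Cfsg

section Amb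

variable {G : Type*} [Group G]

open scoped commutatorElement in
/-- Quadratic action in commutator form gives commuting of `a` with `[v, a]`. -/
theorem commute_comm_of_quad (V : Subgroup G) (x : G)
    (hq : ⁅⁅V, Subgroup.zpowers x⁆, Subgroup.zpowers x⁆ = ⊥) {v : G} (hv : v ∈ V) :
    Commute (v * x * v⁻¹ * x⁻¹) x := by
  have h : Commute ⁅v, x⁆ x := by
    rw [← commutatorElement_eq_one_iff_commute, ← Subgroup.mem_bot, ← hq]
    exact Subgroup.commutator_mem_commutator (Subgroup.commutator_mem_commutator hv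
      (Subgroup.mem_zpowers x)) (Subgroup.mem_zpowers x)
  rwa [commutatorElement_def] at h

/-- Conjugates under the normalizer of quadratically acting elements act quadratically. -/
theorem quad_conj_of_mem_normalizer (V : Subgroup G) (a g : G)
    (hg : g ∈ Subgroup.normalizer (V : Set G))
    (ha : ⁅⁅V, Subgroup.zpowers a⁆, Subgroup.zpowers a⁆ = ⊥) :
    ⁅⁅V, Subgroup.zpowers (g * a * g⁻¹)⁆, Subgroup.zpowers (g * a * g⁻¹)⁆ = ⊥ := by
  have hVmap : V.map (MulAut.conj g).toMonoidHom = V :=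
    Subgroup.mem_normalizer_iff_map_conj_eq.1 hg
  have hz : (Subgroup.zpowers a).map (MulAut.conj g).toMonoidHom =
      Subgroup.zpowers (g * a * g⁻¹) := by
    rw [MonoidHom.map_zpowers]
    rfl
  have h := congrArg (Subgroup.map (MulAut.conj g).toMonoidHom) ha
  rw [Subgroup.map_commutator, Subgroup.map_commutator, hVmap, hz, Subgroup.map_bot] at h
  exact h

/-- A quadratically acting element of the normalizer of an elementary abelian `p`-group has its
`p`-th power in the centralizer. -/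
theorem pow_prime_mem_centralizer_of_quad {p : ℕ} (V : Subgroup G)
    (hV : IsElementaryAbelian p V) (a : G) (haN : a ∈ Subgroup.normalizer (V : Set G))
    (ha : ⁅⁅V, Subgroup.zpowers a⁆, Subgroup.zpowers a⁆ = ⊥) :
    a ^ p ∈ Subgroup.centralizer (V : Set G) := by
  rw [Subgroup.mem_centralizer_iff]
  intro v hv
  have hc : Commute (v⁻¹ * a * v⁻¹⁻¹ * a⁻¹) a := commute_comm_of_quad V a ha (inv_mem hv)
  rw [inv_inv] at hc
  set c := v⁻¹ * a * v * a⁻¹ with hcdef
  have hcV : c ∈ V := by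
    have h1 : a * v * a⁻¹ ∈ V := (Subgroup.mem_normalizer_iff.1 haN v).1 hv
    have e : c = v⁻¹ * (a * v * a⁻¹) := by rw [hcdef]; group
    rw [e]
    exact mul_mem (inv_mem hv) h1
  have hav : a * v = v * c * a := by rw [hcdef]; group
  have key : ∀ j : ℕ, a ^ j * v = v * c ^ j * a ^ j := by
    intro j
    induction j with
    | zero => simp
    | succ j ih =>
      calc a ^ (j + 1) * v = a ^ j * (a * v) := by rw [pow_succ, mul_assoc]
        _ = a ^ j * (v * c * a) := by rw [hav]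
        _ = (a ^ j * v) * c * a := by simp only [mul_assoc]
        _ = (v * c ^ j * a ^ j) * c * a := by rw [ih]
        _ = v * c ^ j * (a ^ j * c) * a := by simp only [mul_assoc]
        _ = v * c ^ j * (c * a ^ j) * a := by rw [(hc.symm.pow_left j).eq]
        _ = v * c ^ (j + 1) * a ^ (j + 1) := by rw [pow_succ c, pow_succ a]; simp only [mul_assoc]
  have h1 := key p
  rw [hV.2 c hcV, mul_one] at h1
  exact h1.symm

end Amb

section Main

variable {G : Type*} [Group G] [Finite G] {p : ℕ} [Fact p.Prime]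

/-- A group that embeds into `A` is a section of `A`. -/
theorem isSectionOf_of_injective {A B : Type*} [Group A] [Group B] (j : B →* A)
    (hj : Function.Injective j) : Helper33.IsSectionOf A B :=
  ⟨j.range, (MonoidHom.ofInjective hj).symm.toMonoidHom,
    (MonoidHom.ofInjective hj).symm.surjective⟩

/-- Sections of a subgroup are sections of the group. -/
theorem isSectionOf_of_le {A : Type*} [Group A] {X H : Subgroup A} (hXH : X ≤ H) {T : Type*}
    [Group T] (h : Helper33.IsSectionOf ↥X T) : Helper33.IsSectionOf ↥H T :=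
  (isSectionOf_of_injective (Subgroup.inclusion hXH) (Subgroup.inclusion_injective hXH)).trans h

/-- **Quadratic pairs, ambient form.** Let `p` be odd, `V` an elementary abelian `p`-subgroup of
the finite group `G`, `H` a subgroup normalizing `V` and acting faithfully on it, and `a, b ∈ H`
acting quadratically on `V`. If `⟨a, b⟩` is not a `p`-group, then a subgroup of `⟨a, b⟩` maps
onto `SL(2, p)`. -/
theorem exists_surj_sl2_of_quad_pair_amb (hp : p ≠ 2) (V H : Subgroup G)
    (hV : IsElementaryAbelian p V) (hHV : H ≤ Subgroup.normalizer (V : Set G))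
    (hf : H ⊓ Subgroup.centralizer (V : Set G) = ⊥) (a b : G)
    (hXH : Subgroup.closure ({a, b} : Set G) ≤ H)
    (ha : ⁅⁅V, Subgroup.zpowers a⁆, Subgroup.zpowers a⁆ = ⊥)
    (hb : ⁅⁅V, Subgroup.zpowers b⁆, Subgroup.zpowers b⁆ = ⊥)
    (hnp : ¬ IsPGroup p (Subgroup.closure ({a, b} : Set G))) :
    ∃ (K : Subgroup ↥(Subgroup.closure ({a, b} : Set G))) (θ : ↥K →* SL2 (ZMod p)),
      Function.Surjective θ := by
  classical
  have hpodd : Odd p := (Fact.out : p.Prime).odd_of_ne_two hp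
  have haX : a ∈ Subgroup.closure ({a, b} : Set G) := Subgroup.subset_closure (by simp)
  have hbX : b ∈ Subgroup.closure ({a, b} : Set G) := Subgroup.subset_closure (by simp)
  have hgen := closure_pair_subtype_eq_top a b haX hbX
  obtain ⟨h, hh, hh1⟩ : ∃ h : Subgroup.closure ({a, b} : Set G),
      (orderOf h).Coprime p ∧ h ≠ 1 := by
    by_contra hcon
    push Not at hcon
    apply hnp
    have hcard : Nat.card (Subgroup.closure ({a, b} : Set G)) =
        p ^ (Nat.card (Subgroup.closure ({a, b} : Set G))).primeFactorsList.length := by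
      apply Nat.eq_prime_pow_of_unique_prime_dvd Nat.card_pos.ne'
      intro r hr hrd
      by_contra hrp
      have := Fact.mk hr
      obtain ⟨g, hg⟩ := exists_prime_orderOf_dvd_card' r hrd
      have hg1 : g = 1 := hcon g (by rw [hg]; exact (Nat.coprime_primes hr Fact.out).2 hrp)
      rw [hg1, orderOf_one] at hg
      exact hr.ne_one hg.symm
    exact IsPGroup.of_card hcard
  let φ : Subgroup.closure ({a, b} : Set G) →* MulAut ↥V :=
    V.normalizerMonoidHom.comp (Subgroup.inclusion (hXH.trans hHV))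
  have hφ : ∀ (g : Subgroup.closure ({a, b} : Set G)) (m : ↥V),
      ((φ g m : ↥V) : G) = (g : G) * m * (g : G)⁻¹ := fun g m => rfl
  have hMp : ∀ m : ↥V, m ^ p = 1 := fun m => Subtype.ext (hV.2 m m.2)
  have hquad : ∀ c : Subgroup.closure ({a, b} : Set G),
      ⁅⁅V, Subgroup.zpowers (c : G)⁆, Subgroup.zpowers (c : G)⁆ = ⊥ →
      ∀ m : ↥V, φ c (φ c m / m) = φ c m / m := by
    intro c hc m
    apply Subtype.ext
    rw [hφ, Subgroup.coe_div, hφ]
    have hcomm := commute_comm_of_quad V (c : G) hc m.2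
    have h1 : Commute (c : G) ((m : G) * c * (m : G)⁻¹ * (c : G)⁻¹)⁻¹ := hcomm.symm.inv_right
    have h2 := h1.eq
    rw [div_eq_mul_inv]
    calc (c : G) * ((c : G) * m * (c : G)⁻¹ * (m : G)⁻¹) * (c : G)⁻¹
        = (c : G) * ((m : G) * c * (m : G)⁻¹ * (c : G)⁻¹)⁻¹ * (c : G)⁻¹ := by group
      _ = ((m : G) * c * (m : G)⁻¹ * (c : G)⁻¹)⁻¹ * (c : G) * (c : G)⁻¹ := by rw [h2]
      _ = (c : G) * m * (c : G)⁻¹ * (m : G)⁻¹ := by group
  have hφh : φ h ≠ 1 := by
    intro h1
    apply hh1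
    have h2 : (h : G) ∈ H ⊓ Subgroup.centralizer (V : Set G) := by
      refine ⟨hXH h.2, ?_⟩
      show (h : G) ∈ Subgroup.centralizer (V : Set G)
      rw [Subgroup.mem_centralizer_iff]
      intro m hm
      have h3 := hφ h ⟨m, hm⟩
      rw [h1] at h3
      have h4 : m = (h : G) * m * (h : G)⁻¹ := h3
      rw [eq_mul_inv_iff_mul_eq] at h4
      exact h4
    rw [hf, Subgroup.mem_bot] at h2
    exact Subtype.ext h2
  exact @exists_surj_sl2_of_quadratic_pair_mulAut ↥V
    (commGroupOfComm ↥V (fun x y => hV.1.is_comm.comm x y)) _ p _ hpodd hMp _ _ _ φ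
    ⟨a, haX⟩ ⟨b, hbX⟩ hgen (hquad ⟨a, haX⟩ ha) (hquad ⟨b, hbX⟩ hb) ⟨h, hh, hφh⟩

/-- Section form of `exists_surj_sl2_of_quad_pair_amb`: `SL(2, p)` is a section of `H`. -/
theorem isSectionOf_sl2_of_quad_pair_amb (hp : p ≠ 2) (V H : Subgroup G)
    (hV : IsElementaryAbelian p V) (hHV : H ≤ Subgroup.normalizer (V : Set G))
    (hf : H ⊓ Subgroup.centralizer (V : Set G) = ⊥) (a b : G)
    (hXH : Subgroup.closure ({a, b} : Set G) ≤ H)
    (ha : ⁅⁅V, Subgroup.zpowers a⁆, Subgroup.zpowers a⁆ = ⊥)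
    (hb : ⁅⁅V, Subgroup.zpowers b⁆, Subgroup.zpowers b⁆ = ⊥)
    (hnp : ¬ IsPGroup p (Subgroup.closure ({a, b} : Set G))) :
    Helper33.IsSectionOf ↥H (Matrix.SpecialLinearGroup (Fin 2) (ZMod p)) := by
  obtain ⟨K, θ, hθ⟩ := exists_surj_sl2_of_quad_pair_amb hp V H hV hHV hf a b hXH ha hb hnp
  exact isSectionOf_of_le hXH ⟨K, θ, hθ⟩

/-- Baer–Suzuki step: an element of `H` outside `O_p(H)` has two `H`-conjugates generating a
subgroup that is not a `p`-group. -/
theorem exists_conj_pair_not_pGroup (H : Subgroup G) (a : G) (haH : a ∈ H)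
    (hna : a ∉ (pCore p ↥H).map H.subtype) :
    ∃ g₁ ∈ H, ∃ g₂ ∈ H,
      ¬ IsPGroup p (Subgroup.closure ({g₁ * a * g₁⁻¹, g₂ * a * g₂⁻¹} : Set G)) := by
  by_contra hcon
  push Not at hcon
  apply hna
  have hmem : ∀ P : Sylow p ↥H, (⟨a, haH⟩ : ↥H) ∈ (P : Subgroup ↥H) := by
    intro P
    apply Helper41.baer_suzuki_mem {z : ↥H | ∃ g : ↥H, z = g * ⟨a, haH⟩ * g⁻¹} _ _ ⟨a, haH⟩
      ⟨1, by simp⟩ P
    · rintro z ⟨g, rfl⟩ g'
      exact ⟨g' * g, by group⟩
    · rintro z1 ⟨g1, hz1⟩ z2 ⟨g2, hz2⟩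
      have h1 := hcon g1 g1.2 g2 g2.2
      have e1 : (z1 : G) = (g1 : G) * a * (g1 : G)⁻¹ := by rw [hz1]; rfl
      have e2 : (z2 : G) = (g2 : G) * a * (g2 : G)⁻¹ := by rw [hz2]; rfl
      have e : (Subgroup.closure ({z1, z2} : Set ↥H)).map H.subtype =
          Subgroup.closure ({(z1 : G), (z2 : G)} : Set G) := by
        rw [MonoidHom.map_closure, Set.image_pair]
        rfl
      rw [← e1, ← e2, ← e] at h1
      exact h1.of_equiv
        ((Subgroup.closure ({z1, z2} : Set ↥H)).equivMapOfInjective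
          H.subtype H.subtype_injective).symm
  have h1 : (⟨a, haH⟩ : ↥H) ∈ Helper41.sylowCore p ↥H := (Helper41.mem_sylowCore _).2 hmem
  have h2 : Helper41.sylowCore p ↥H ≤ pCore p ↥H :=
    le_sSup ⟨Helper41.sylowCore_normal p ↥H, Helper41.sylowCore_isPGroup p ↥H⟩
  exact ⟨⟨a, haH⟩, h2 h1, rfl⟩

/-- **Non-stability gives `SL(2, p)`, ambient form.** If `a ∈ H` acts quadratically on the
elementary abelian `p`-group `V` (on which `H` acts faithfully) and `a ∉ O_p(H)`, then `SL(2, p)`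
is a section of `H`; more precisely a subgroup of the group generated by two `H`-conjugates of
`a` maps onto `SL(2, p)`. -/
theorem exists_surj_sl2_of_quad_not_mem_pCore (hp : p ≠ 2) (V H : Subgroup G)
    (hV : IsElementaryAbelian p V) (hHV : H ≤ Subgroup.normalizer (V : Set G))
    (hf : H ⊓ Subgroup.centralizer (V : Set G) = ⊥) (a : G) (haH : a ∈ H)
    (hq : ⁅⁅V, Subgroup.zpowers a⁆, Subgroup.zpowers a⁆ = ⊥)
    (hna : a ∉ (pCore p ↥H).map H.subtype) :
    ∃ a₁ a₂ : G, Subgroup.closure ({a₁, a₂} : Set G) ≤ H ∧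
      ∃ (K : Subgroup ↥(Subgroup.closure ({a₁, a₂} : Set G))) (θ : ↥K →* SL2 (ZMod p)),
        Function.Surjective θ := by
  obtain ⟨g₁, hg₁, g₂, hg₂, hnp⟩ := exists_conj_pair_not_pGroup H a haH hna
  have hXH : Subgroup.closure ({g₁ * a * g₁⁻¹, g₂ * a * g₂⁻¹} : Set G) ≤ H := by
    rw [Subgroup.closure_le]
    rintro x (rfl | rfl)
    · exact mul_mem (mul_mem hg₁ haH) (inv_mem hg₁)
    · exact mul_mem (mul_mem hg₂ haH) (inv_mem hg₂)
  exact ⟨_, _, hXH, exists_surj_sl2_of_quad_pair_amb hp V H hV hHV hf _ _ hXH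
    (quad_conj_of_mem_normalizer V a g₁ (hHV hg₁) hq)
    (quad_conj_of_mem_normalizer V a g₂ (hHV hg₂) hq) hnp⟩

/-- Section form of `exists_surj_sl2_of_quad_not_mem_pCore`. -/
theorem isSectionOf_sl2_of_quad_not_mem_pCore (hp : p ≠ 2) (V H : Subgroup G)
    (hV : IsElementaryAbelian p V) (hHV : H ≤ Subgroup.normalizer (V : Set G))
    (hf : H ⊓ Subgroup.centralizer (V : Set G) = ⊥) (a : G) (haH : a ∈ H)
    (hq : ⁅⁅V, Subgroup.zpowers a⁆, Subgroup.zpowers a⁆ = ⊥)
    (hna : a ∉ (pCore p ↥H).map H.subtype) :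
    Helper33.IsSectionOf ↥H (Matrix.SpecialLinearGroup (Fin 2) (ZMod p)) := by
  obtain ⟨a₁, a₂, hXH, K, θ, hθ⟩ :=
    exists_surj_sl2_of_quad_not_mem_pCore hp V H hV hHV hf a haH hq hna
  exact isSectionOf_of_le hXH ⟨K, θ, hθ⟩

omit [Finite G] in
/-- A subgroup of a subgroup `X ≤ H` of `G` mapping onto `T` gives a section of `G` inside `H`
isomorphic to `T`. -/
theorem exists_section_le_of_surj {X H : Subgroup G} (hXH : X ≤ H) {T : Type*} [Group T]
    (K' : Subgroup ↥X) (θ : ↥K' →* T) (hθ : Function.Surjective θ) :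
    ∃ (K L : Subgroup G) (hL : (L.subgroupOf K).Normal), K ≤ H ∧
      Nonempty ((K ⧸ L.subgroupOf K) ≃* T) := by
  obtain ⟨K, L, hL, hK, hiso⟩ := exists_section_of_surj X.subtype X.subtype_injective K' θ hθ
  refine ⟨K, L, hL, ?_, hiso⟩
  intro y hy
  obtain ⟨w, rfl⟩ := hK hy
  exact hXH w.2

/-- If one Sylow `q`-subgroup is commutative then all are. -/
theorem isMulCommutative_sylow_of_one {A : Type*} [Group A] [Finite A] {q : ℕ} [Fact q.Prime]
    (T : Sylow q A) (hT : IsMulCommutative T) (T' : Sylow q A) : IsMulCommutative T' := by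
  refine ⟨⟨fun x y => ?_⟩⟩
  apply (Sylow.equiv T' T).injective
  rw [map_mul, map_mul]
  exact hT.is_comm.comm _ _

/-- A prime different from `2` and `3` is at least `5`. -/
theorem five_le_of_prime {p : ℕ} (hpp : p.Prime) (h2 : p ≠ 2) (h3 : p ≠ 3) : 5 ≤ p := by
  by_contra hlt
  have hlt' : p < 5 := by omega
  interval_cases p
  · exact Nat.not_prime_zero hpp
  · exact Nat.not_prime_one hpp
  · exact h2 rfl
  · exact h3 rfl
  · exact (by decide : ¬ Nat.Prime 4) hpp

end Main

end Cfsg.Agent.Helper24
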