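import Cfsg.Agent.Helper24.SL2Sec

/-!
# Quadratic pairs over a finite field: a rational two-dimensional representation

If `X = ⟨a, b⟩` acts on a finite-dimensional space over a finite field `K` of characteristic `p`
with `a`, `b` quadratic, some `p'`-element acting nontrivially, and the `p'`-part of the order of
`a b` dividing `|K| - 1`, then `X` has a representation into `SL(2, K)` whose image is not a
`p`-group.
-/

set_option autoImplicit false

namespace Cfsg.Agent.Helper24

open Polynomial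

section Rat

/-- Elements of an extension of the finite field `K` fixed by the `|K|`-th power map lie in
`K`. -/
theorem mem_range_algebraMap_of_pow_card {K k : Type*} [Field K] [Fintype K] [Field k]
    [Algebra K k] (x : k) (hx : x ^ Fintype.card K = x) : ∃ y : K, algebraMap K k y = x := by
  classical
  have hq : 1 < Fintype.card K := Fintype.one_lt_card
  have hne : (X ^ Fintype.card K - X : k[X]) ≠ 0 := FiniteField.X_pow_card_sub_X_ne_zero k hq
  have hsub : (Finset.univ : Finset K).image (algebraMap K k) ⊆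
      (X ^ Fintype.card K - X : k[X]).roots.toFinset := by
    intro z hz
    obtain ⟨y, -, rfl⟩ := Finset.mem_image.1 hz
    rw [Multiset.mem_toFinset, mem_roots hne, IsRoot.def]
    simp only [eval_sub, eval_pow, eval_X]
    rw [← map_pow, FiniteField.pow_card, sub_self]
  have hcard : (X ^ Fintype.card K - X : k[X]).roots.toFinset.card ≤
      ((Finset.univ : Finset K).image (algebraMap K k)).card := by
    rw [Finset.card_image_of_injective _ (algebraMap K k).injective, Finset.card_univ]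
    calc (X ^ Fintype.card K - X : k[X]).roots.toFinset.card
        ≤ Multiset.card (X ^ Fintype.card K - X : k[X]).roots := Multiset.toFinset_card_le _
      _ ≤ (X ^ Fintype.card K - X : k[X]).natDegree := card_roots' _
      _ = Fintype.card K := FiniteField.X_pow_card_sub_X_natDegree_eq k hq
  have heq := Finset.eq_of_subset_of_card_le hsub hcard
  have hxr : x ∈ (X ^ Fintype.card K - X : k[X]).roots.toFinset := by
    rw [Multiset.mem_toFinset, mem_roots hne, IsRoot.def]
    simp only [eval_sub, eval_pow, eval_X]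
    rw [hx, sub_self]
  rw [← heq] at hxr
  obtain ⟨y, -, hy⟩ := Finset.mem_image.1 hxr
  exact ⟨y, hy⟩

variable {k : Type*} [Field k]

/-- An element of `SL(2, k)` of trace `2` satisfies `(x - 1)² = 0` as a matrix. -/
theorem sl2_sub_one_sq {x : SL2 k} (ht : x 0 0 + x 1 1 = 2) :
    ((x : Matrix (Fin 2) (Fin 2) k) - 1) * ((x : Matrix (Fin 2) (Fin 2) k) - 1) = 0 := by
  have hd := sl2_det x
  ext i j
  fin_cases i <;> fin_cases j
  · simp [Matrix.mul_apply, Fin.sum_univ_two, Matrix.one_apply]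
    linear_combination (x 0 0) * ht - hd
  · simp [Matrix.mul_apply, Fin.sum_univ_two, Matrix.one_apply]
    linear_combination (x 0 1) * ht
  · simp [Matrix.mul_apply, Fin.sum_univ_two, Matrix.one_apply]
    linear_combination (x 1 0) * ht
  · simp [Matrix.mul_apply, Fin.sum_univ_two, Matrix.one_apply]
    linear_combination (x 1 1) * ht - hd

/-- In characteristic `p` (any prime), elements of `SL(2, k)` of trace `2` have order dividing
`p`. -/
theorem sl2_pow_char_eq_one (p : ℕ) [CharP k p] {x : SL2 k} (ht : x 0 0 + x 1 1 = 2) :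
    x ^ p = 1 := by
  apply Subtype.ext
  have h1 := one_add_pow_of_sq_zero (sl2_sub_one_sq ht) p
  have e : (1 : Matrix (Fin 2) (Fin 2) k) + ((x : Matrix (Fin 2) (Fin 2) k) - 1) = x := by abel
  rw [e] at h1
  have h2 : (p • ((x : Matrix (Fin 2) (Fin 2) k) - 1)) = 0 := by
    rw [← Nat.cast_smul_eq_nsmul k, CharP.cast_eq_zero, zero_smul]
  rw [h2, add_zero] at h1
  exact h1

/-- Normal form of a non-commuting pair of unipotent elements. -/
theorem exists_conj_uM_vM [IsAlgClosed k] {x y : SL2 k} (hx : x 0 0 + x 1 1 = 2)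
    (hy : y 0 0 + y 1 1 = 2) (hc : ¬ Commute x y) :
    ∃ (Q : SL2 k) (γ : k), Q * x * Q⁻¹ = uM 1 ∧ Q * y * Q⁻¹ = vM γ := by
  have hx1 : x ≠ 1 := by
    rintro rfl
    exact hc (Commute.one_left y)
  obtain ⟨Q₁, hQ₁⟩ := exists_conj_eq_uM hx hx1
  set y₁ := Q₁ * y * Q₁⁻¹ with hy₁
  have hty₁ : y₁ 0 0 + y₁ 1 1 = 2 := by rw [hy₁, sl2_tr_conj]; exact hy
  have hc₁ : ¬ Commute (uM 1) y₁ := by
    intro h
    apply hc
    have h1 : Q₁ * x * Q₁⁻¹ * (Q₁ * y * Q₁⁻¹) = Q₁ * y * Q₁⁻¹ * (Q₁ * x * Q₁⁻¹) := by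
      rw [hQ₁]; exact h.eq
    have h2 : x * y = Q₁⁻¹ * (Q₁ * x * Q₁⁻¹ * (Q₁ * y * Q₁⁻¹)) * Q₁ := by group
    have h3 : y * x = Q₁⁻¹ * (Q₁ * y * Q₁⁻¹ * (Q₁ * x * Q₁⁻¹)) * Q₁ := by group
    show x * y = y * x
    rw [h2, h3, h1]
  have h10 : y₁ 1 0 ≠ 0 := by
    intro h10
    apply hc₁
    have hdiag := upper_diag h10
    have h00 : y₁ 0 0 = 1 := by
      have : (y₁ 0 0 - 1) * (y₁ 0 0 - 1) = 0 := by linear_combination y₁ 0 0 * hty₁ - hdiag
      exact sub_eq_zero.1 (mul_self_eq_zero.1 this)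
    have hyu : y₁ = uM (y₁ 0 1) := mem_unipS_iff.1 ⟨h10, h00⟩
    rw [hyu]
    show uM 1 * uM (y₁ 0 1) = uM (y₁ 0 1) * uM 1
    rw [← uM_add, ← uM_add, add_comm]
  set s : k := (1 - y₁ 0 0) / y₁ 1 0 with hs
  set y₂ := uM s * y₁ * (uM s)⁻¹ with hy₂
  have h00 : y₂ 0 0 = 1 := by
    rw [hy₂, conj_uM_00', hs]
    field_simp
    ring
  have h10' : y₂ 1 0 = y₁ 1 0 := by rw [hy₂, conj_uM_10']
  have hty₂ : y₂ 0 0 + y₂ 1 1 = 2 := by rw [hy₂, sl2_tr_conj]; exact hty₁
  have h11 : y₂ 1 1 = 1 := by linear_combination hty₂ - h00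
  have hd₂ := sl2_det y₂
  have h01 : y₂ 0 1 = 0 := by
    have : y₂ 0 1 * y₂ 1 0 = 0 := by rw [h00, h11] at hd₂; linear_combination -hd₂
    rcases mul_eq_zero.1 this with h | h
    · exact h
    · rw [h10'] at h; exact absurd h h10
  refine ⟨uM s * Q₁, y₁ 1 0, ?_, ?_⟩
  · have e : uM s * Q₁ * x * (uM s * Q₁)⁻¹ = uM s * (Q₁ * x * Q₁⁻¹) * (uM s)⁻¹ := by group
    rw [e, hQ₁, conj_uM_uM]
  · have e : uM s * Q₁ * y * (uM s * Q₁)⁻¹ = y₂ := by rw [hy₂, hy₁]; group
    rw [e]
    apply sl2_ext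
    · rw [h00]; simp
    · rw [h01]; simp
    · rw [h10']; simp
    · rw [h11]; simp

/-- The trace of an element of `SL(2, k)` whose order has `p'`-part dividing `q - 1` is fixed by
the `q`-th power map (`q` a power of the characteristic `p`). -/
theorem sl2_tr_pow_eq [IsAlgClosed k] (p : ℕ) [Fact p.Prime] [CharP k p] {z : SL2 k}
    {e m f : ℕ} (hz : z ^ (p ^ e * m) = 1) (hm : m ∣ p ^ f - 1) :
    (z 0 0 + z 1 1) ^ (p ^ f) = z 0 0 + z 1 1 := by
  classical
  by_cases hf : f = 0
  · rw [hf, pow_zero, pow_one]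
  have hm0 : m ≠ 0 := by
    rintro rfl
    rw [zero_dvd_iff] at hm
    have h1 : 1 < p ^ f := Nat.one_lt_pow hf (Fact.out : p.Prime).one_lt
    omega
  obtain ⟨c, hc⟩ := Module.End.exists_eigenvalue
    (Matrix.toLin' (z : Matrix (Fin 2) (Fin 2) k))
  obtain ⟨v, hv⟩ := hc.exists_hasEigenvector
  have hv0 : v ≠ 0 := hv.2
  have hev := hv.apply_eq_smul
  have hpow : ∀ n : ℕ, Matrix.toLin' ((z ^ n : SL2 k) : Matrix (Fin 2) (Fin 2) k) v = c ^ n • v := by
    intro n
    induction n with
    | zero => simp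
    | succ n ih =>
      have e1 : ((z ^ (n + 1) : SL2 k) : Matrix (Fin 2) (Fin 2) k) =
          ((z ^ n : SL2 k) : Matrix (Fin 2) (Fin 2) k) * (z : Matrix (Fin 2) (Fin 2) k) := by
        rw [pow_succ]; rfl
      rw [e1, Matrix.toLin'_mul, LinearMap.comp_apply, hev, map_smul, ih, smul_smul, pow_succ,
        mul_comm]
  have hcN : c ^ (p ^ e * m) = 1 := by
    have h1 := hpow (p ^ e * m)
    rw [hz] at h1
    have h2 : Matrix.toLin' ((1 : SL2 k) : Matrix (Fin 2) (Fin 2) k) v = v := by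
      have : ((1 : SL2 k) : Matrix (Fin 2) (Fin 2) k) = 1 := rfl
      rw [this, Matrix.toLin'_one]; rfl
    rw [h2] at h1
    have h3 : (c ^ (p ^ e * m) - 1) • v = 0 := by rw [sub_smul, one_smul, ← h1, sub_self]
    rcases smul_eq_zero.1 h3 with h | h
    · exact sub_eq_zero.1 h
    · exact absurd h hv0
  have hcm : c ^ m = 1 := by
    have h1 : (c ^ m - 1) ^ (p ^ e) = 0 := by
      rw [sub_pow_char_pow, one_pow, ← pow_mul, mul_comm, hcN, sub_self]
    exact sub_eq_zero.1 (pow_eq_zero_iff (pow_ne_zero e (Fact.out : p.Prime).ne_zero) |>.1 h1)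
  have hc0 : c ≠ 0 := by
    intro h
    rw [h, zero_pow hm0] at hcm
    exact zero_ne_one hcm
  have hcq : c ^ (p ^ f) = c := by
    obtain ⟨d, hd⟩ := hm
    have h1 : c ^ (p ^ f - 1) = 1 := by rw [hd, pow_mul, hcm, one_pow]
    have hpos : 1 ≤ p ^ f := Nat.one_le_pow f p (Fact.out : p.Prime).pos
    calc c ^ (p ^ f) = c ^ (p ^ f - 1 + 1) := by rw [Nat.sub_add_cancel hpos]
      _ = c := by rw [pow_succ, h1, one_mul]
  -- the characteristic equation
  have h0 := congrFun hev 0
  have h1 := congrFun hev 1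
  simp only [Matrix.toLin'_apply, Matrix.mulVec, dotProduct, Fin.sum_univ_two, Pi.smul_apply,
    smul_eq_mul] at h0 h1
  have hd := sl2_det z
  have hchar : c * c - (z 0 0 + z 1 1) * c + 1 = 0 := by
    have hv' : v 0 ≠ 0 ∨ v 1 ≠ 0 := by
      by_contra hcon
      push Not at hcon
      apply hv0
      ext i
      fin_cases i
      · exact hcon.1
      · exact hcon.2
    rcases hv' with hv' | hv'
    · have : (c * c - (z 0 0 + z 1 1) * c + 1) * v 0 = 0 := by
        linear_combination (z 1 1 - c) * h0 - z 0 1 * h1 - v 0 * hd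
      exact (mul_eq_zero.1 this).resolve_right hv'
    · have : (c * c - (z 0 0 + z 1 1) * c + 1) * v 1 = 0 := by
        linear_combination (z 0 0 - c) * h1 - z 1 0 * h0 - v 1 * hd
      exact (mul_eq_zero.1 this).resolve_right hv'
  have htr : z 0 0 + z 1 1 = c + c⁻¹ := by
    field_simp
    linear_combination -hchar
  rw [htr, add_pow_char_pow, inv_pow, hcq]

end Rat

section RatMain

open TensorProduct

/-- The canonical embedding `SL(2, K) → SL(2, k)` for a field extension `k / K`. -/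
noncomputable def slMapAlg (K k : Type*) [Field K] [Field k] [Algebra K k] : SL2 K →* SL2 k :=
  Matrix.SpecialLinearGroup.map (algebraMap K k)

theorem slMapAlg_apply {K k : Type*} [Field K] [Field k] [Algebra K k] (x : SL2 K) (i j : Fin 2) :
    (slMapAlg K k x) i j = algebraMap K k (x i j) := rfl

theorem slMapAlg_injective {K k : Type*} [Field K] [Field k] [Algebra K k] :
    Function.Injective (slMapAlg K k) := by
  intro x y h
  have hinj : Function.Injective (algebraMap K k) := (algebraMap K k).injective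
  apply sl2_ext
  · exact hinj (by rw [← slMapAlg_apply, ← slMapAlg_apply, h])
  · exact hinj (by rw [← slMapAlg_apply, ← slMapAlg_apply, h])
  · exact hinj (by rw [← slMapAlg_apply, ← slMapAlg_apply, h])
  · exact hinj (by rw [← slMapAlg_apply, ← slMapAlg_apply, h])

theorem slMapAlg_uM {K k : Type*} [Field K] [Field k] [Algebra K k] (t : K) :
    slMapAlg K k (uM t) = uM (algebraMap K k t) := by
  apply sl2_ext <;> simp [slMapAlg_apply]

theorem slMapAlg_vM {K k : Type*} [Field K] [Field k] [Algebra K k] (t : K) :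
    slMapAlg K k (vM t) = vM (algebraMap K k t) := by
  apply sl2_ext <;> simp [slMapAlg_apply]

/-- **Rational form of the quadratic pair theorem.** Let `K` be a finite field of characteristic
`p` and let the finite group `X = ⟨a, b⟩` act on a finite-dimensional `K`-space with `a` and `b`
quadratic. If some element of order prime to `p` acts nontrivially and the `p'`-part of the order
of `a b` divides `|K| - 1`, then `X` has a homomorphism to `SL(2, K)` which is nontrivial on some
`p'`-element. -/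
theorem exists_nonPGroup_sl2_rep {K : Type*} [Field K] [Fintype K] (p : ℕ) [Fact p.Prime]
    [CharP K p] {X : Type*} [Group X] [Finite X] {W : Type*} [AddCommGroup W] [Module K W]
    [FiniteDimensional K W] (ρ : X →* Module.End K W) (a b : X)
    (hgen : Subgroup.closure {a, b} = ⊤)
    (ha : (ρ a - 1) * (ρ a - 1) = 0) (hb : (ρ b - 1) * (ρ b - 1) = 0)
    (hh : ∃ h : X, (orderOf h).Coprime p ∧ ρ h ≠ 1)
    (hk : ∃ e m : ℕ, (a * b) ^ (p ^ e * m) = 1 ∧ m ∣ Fintype.card K - 1) :
    ∃ φ : X →* SL2 K, ∃ h : X, (orderOf h).Coprime p ∧ φ h ≠ 1 := by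
  let F := AlgebraicClosure K
  have : CharP F p := charP_of_injective_algebraMap (algebraMap K F).injective p
  let ρK : X →* Module.End F (F ⊗[K] W) :=
    (Module.End.baseChangeHom K F W).toMonoidHom.comp ρ
  have hρK : ∀ h, ρK h = (ρ h).baseChange F := fun h => rfl
  have haK : (ρK a - 1) * (ρK a - 1) = 0 := by
    rw [hρK, ← LinearMap.baseChange_one, ← LinearMap.baseChange_sub, ← LinearMap.baseChange_mul,
      ha, LinearMap.baseChange_zero]
  have hbK : (ρK b - 1) * (ρK b - 1) = 0 := by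
    rw [hρK, ← LinearMap.baseChange_one, ← LinearMap.baseChange_sub, ← LinearMap.baseChange_mul,
      hb, LinearMap.baseChange_zero]
  have hhK : ∃ h : X, (orderOf h).Coprime p ∧ ρK h ≠ 1 := by
    obtain ⟨h, hh, hρh⟩ := hh
    refine ⟨h, hh, fun h1 => hρh ?_⟩
    rw [hρK, ← LinearMap.baseChange_one] at h1
    exact LinearMap.baseChangeHom_injective (R := K) (S := F) (M := W) (N := W) h1
  obtain ⟨φ₀, hφa, hφb, h, hh, hφh⟩ := exists_sl2_rep_of_quadratic_pair p ρK a b hgen haK hbK hhK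
  -- the images of `a` and `b` do not commute
  have hnc : ¬ Commute (φ₀ a) (φ₀ b) := by
    intro hc
    have hrange : φ₀ h ∈ Subgroup.closure ({φ₀ a, φ₀ b} : Set (SL2 F)) := by
      have : Subgroup.map φ₀ (Subgroup.closure {a, b}) = Subgroup.closure {φ₀ a, φ₀ b} := by
        rw [MonoidHom.map_closure, Set.image_pair]
      rw [← this, hgen]
      exact Subgroup.mem_map_of_mem φ₀ (Subgroup.mem_top h)
    have h1 := pow_eq_one_of_mem_closure_pair hc (sl2_pow_char_eq_one p hφa)
      (sl2_pow_char_eq_one p hφb) _ hrange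
    have h2 : (φ₀ h) ^ (orderOf h) = 1 := by rw [← map_pow, pow_orderOf_eq_one, map_one]
    have h3 : (φ₀ h) ^ Nat.gcd (orderOf h) p = 1 := (pow_gcd_eq_one (a := φ₀ h)).2 ⟨h2, h1⟩
    rw [Nat.Coprime] at hh
    rw [hh, pow_one] at h3
    exact hφh h3
  obtain ⟨Q, γ, hQa, hQb⟩ := exists_conj_uM_vM hφa hφb hnc
  set ψ : X →* SL2 F := conjι Q φ₀ with hψ
  have hψa : ψ a = uM 1 := by rw [hψ, conjι_apply]; exact hQa
  have hψb : ψ b = vM γ := by rw [hψ, conjι_apply]; exact hQb
  have hψh : ψ h ≠ 1 := by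
    intro h1
    apply hφh
    rw [hψ, conjι_apply] at h1
    have : φ₀ h = Q⁻¹ * (Q * φ₀ h * Q⁻¹) * Q := by group
    rw [this, h1]; group
  -- rationality of `γ`
  obtain ⟨e, m, hab, hm⟩ := hk
  obtain ⟨n, hn, hcard⟩ := FiniteField.card K p
  have hγ : ∃ γ₀ : K, algebraMap K F γ₀ = γ := by
    have hz : (ψ (a * b)) ^ (p ^ e * m) = 1 := by rw [← map_pow, hab, map_one]
    have hm' : m ∣ p ^ (n : ℕ) - 1 := by rw [← hcard]; exact hm
    have htr := sl2_tr_pow_eq p hz hm'
    have hval : (ψ (a * b)) 0 0 + (ψ (a * b)) 1 1 = 2 + γ := by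
      rw [map_mul, hψa, hψb]
      simp
      ring
    rw [hval, ← hcard] at htr
    obtain ⟨y, hy⟩ := mem_range_algebraMap_of_pow_card (K := K) (2 + γ) htr
    refine ⟨y - 2, ?_⟩
    rw [map_sub, hy, map_ofNat]
    ring
  obtain ⟨γ₀, rfl⟩ := hγ
  have hle : ψ.range ≤ (slMapAlg K F).range := by
    rw [MonoidHom.range_eq_map, ← hgen, MonoidHom.map_closure, Subgroup.closure_le]
    rintro _ ⟨x, (rfl | rfl), rfl⟩
    · rw [hψa]
      exact ⟨uM 1, by rw [slMapAlg_uM, map_one]⟩
    · rw [hψb]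
      exact ⟨vM γ₀, slMapAlg_vM γ₀⟩
  let j := MonoidHom.ofInjective (slMapAlg_injective (K := K) (k := F))
  let ψ' : X →* (slMapAlg K F).range := ψ.codRestrict _ (fun x => hle ⟨x, rfl⟩)
  refine ⟨j.symm.toMonoidHom.comp ψ', h, hh, ?_⟩
  intro h1
  apply hψh
  have h2 : j.symm (ψ' h) = 1 := h1
  rw [MulEquiv.symm_apply_eq, map_one] at h2
  exact congrArg Subtype.val h2

end RatMain

end Cfsg.Agent.Helper24
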