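import Mathlib
import Cfsg.Agent.Helper97.TNDefs
import Cfsg.Agent.S0248
import Cfsg.Agent.Helper39.LawTransfer

/-! helper24: piece IOM3 of CALL S2413 (helper97): the Levi image of `SL_m` lies in `Ω` for
`m ≥ 3` (odd-dimensional form).  Copy of helper42's `TMIOMM`. -/

set_option autoImplicit false

universe u

namespace Cfsg.Agent.Helper24

open Cfsg Matrix Cfsg.Agent.Helper45 Cfsg.Agent.Helper98 Cfsg.Agent.Helper97.TM
  Cfsg.Agent.Helper97.TN

variable {m : ℕ} {F : Type u} [Field F]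

/-- IOM3 -/
theorem tn_iotaO_mem_omega (hm : 3 ≤ m) (A : Matrix.SpecialLinearGroup (Fin m) F) :
    iotaO m F A ∈ Omega F ⇑(QO m F) :=
  Helper39.perfect_map_mem_commutator (Cfsg.Agent.S0248.result m hm) (iotaO m F) A

end Cfsg.Agent.Helper24
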