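import Mathlib
import Cfsg.Agent.Helper97.TNDefs
import Cfsg.Agent.Helper97.TGTV

set_option autoImplicit false

/-!
helper24: piece TVO of CALL S2413 (helper97): the Levi image of a transvection is an Eichler
transformation (odd-dimensional form).  Copy of helper42's `TMTVM`.
-/

universe u

namespace Cfsg.Agent.Helper24

open Cfsg Matrix Cfsg.Agent.Helper45 Cfsg.Agent.Helper98 Cfsg.Agent.Helper97.TM
  Cfsg.Agent.Helper97.TN

variable {m : ℕ} {F : Type u} [Field F]

/-- TVO -/
theorem tn_iotaO_transvection (T : Matrix.SpecialLinearGroup (Fin m) F) (i j : Fin m)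
    (hij : i ≠ j) (c : F) (hT : (T : Matrix (Fin m) (Fin m) F) = Matrix.transvection i j c) :
    iotaO m F T = eichO (QO m F) (eO m F i) (c • fO m F j) (QO_eO i)
      (polar_eO_smul_fO i j hij c) := by
  have hinv : ((T⁻¹ : Matrix.SpecialLinearGroup (Fin m) F) : Matrix (Fin m) (Fin m) F) =
      Matrix.transvection i j (-c) := by
    have h1 : ((T⁻¹ : Matrix.SpecialLinearGroup (Fin m) F) : Matrix (Fin m) (Fin m) F) *
        (T : Matrix (Fin m) (Fin m) F) = 1 := by
      rw [← Matrix.SpecialLinearGroup.coe_mul, inv_mul_cancel, Matrix.SpecialLinearGroup.coe_one]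
    have h2 : Matrix.transvection i j c * Matrix.transvection i j (-c) =
        (1 : Matrix (Fin m) (Fin m) F) := by
      rw [Matrix.transvection_mul_transvection_same i j hij, add_neg_cancel,
        Matrix.transvection_zero]
    calc ((T⁻¹ : Matrix.SpecialLinearGroup (Fin m) F) : Matrix (Fin m) (Fin m) F)
        = ((T⁻¹ : Matrix.SpecialLinearGroup (Fin m) F) : Matrix (Fin m) (Fin m) F) *
            (Matrix.transvection i j c * Matrix.transvection i j (-c)) := by rw [h2, Matrix.mul_one]
      _ = Matrix.transvection i j (-c) := by rw [← Matrix.mul_assoc, ← hT, h1, Matrix.one_mul]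
  apply ext_mv
  intro x
  rw [mv_iotaO, hinv, hT, mv_eichO]
  unfold Helper44.eich
  rw [QO_smul_fO, QuadraticMap.polar_smul_left, polar_fO_left, polar_eO_left]
  funext idx
  rcases idx with l | l | l
  · obtain ⟨⟩ := l
    simp only [Sum.elim_inl, Function.comp_apply, Pi.add_apply,
      Pi.sub_apply, Pi.smul_apply, eO_z, fO_z, smul_eq_mul, zero_mul, sub_zero, mul_zero,
      add_zero]
  · simp only [Sum.elim_inl, Sum.elim_inr, Cfsg.Agent.Helper97.tg_tv_mulVec, Function.comp_apply,
      Pi.add_apply,
      Pi.sub_apply, Pi.smul_apply, eO_ee, fO_ee, smul_eq_mul, zero_mul, sub_zero, mul_zero]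
    by_cases hk : l = i
    · simp [hk]
    · simp [hk]
  · simp only [Sum.elim_inr, Cfsg.Agent.Helper97.tg_tv_transpose_mulVec,
      Function.comp_apply, Pi.add_apply,
      Pi.sub_apply, Pi.smul_apply, eO_ff, fO_ff, smul_eq_mul, zero_mul, sub_zero, mul_zero,
      add_zero]
    by_cases hk : l = j
    · simp [hk]
      ring
    · simp [hk]

end Cfsg.Agent.Helper24
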